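import Cfsg.Agent.Lib.Helper94.SpRow.Base

set_option autoImplicit false

namespace Cfsg.Agent.Lib.Helper65.SpRow

open Cfsg Cfsg.Geo Matrix Cfsg.Agent.Lib.Helper94.SpRow Cfsg.Agent.Lib.Helper94
open scoped MatrixGroups

variable {F : Type*} [Field F] {m : ℕ}

theorem dvd_of_selfAdjoint_field {r : ℕ}
    (K : Subalgebra F (Matrix (Fin m ⊕ Fin m) (Fin m ⊕ Fin m) F)) (hK : IsFieldSubalgebra r K)
    (hs : IsSelfAdjointFor (sympForm m F) K)
    (ha : ∀ k ∈ K, ∀ v, sympForm m F (k *ᵥ v) v = 0) : r ∣ m := by
  have hV : Module.finrank F (Fin m ⊕ Fin m → F) = 2 * m := by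
    rw [Module.finrank_fintype_fun_eq_card]
    simp; ring
  -- the induction
  have key : ∀ d : ℕ, ∀ L : Submodule F (Fin m ⊕ Fin m → F),
      (∀ k ∈ K, ∀ x ∈ L, k *ᵥ x ∈ L) → (∀ x ∈ L, ∀ y ∈ L, sympForm m F x y = 0) →
      r ∣ Module.finrank F L → 2 * m - Module.finrank F L ≤ d → r ∣ m := by
    intro d
    induction d with
    | zero =>
      intro L h1 h2 h3 h4
      -- `L` is everything, hence `m = 0`
      have hle : Module.finrank F L ≤ 2 * m := hV ▸ Submodule.finrank_le L
      have hLo : L ≤ (sympB m F).orthogonal L := by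
        intro x hx n hn
        show sympB m F n x = 0
        rw [sympB_apply]; exact h2 n hn x hx
      have h5 := LinearMap.BilinForm.finrank_orthogonal (sympB_nondegenerate (F := F) m) L
      have h6 := Submodule.finrank_mono hLo
      rw [h5, hV] at h6
      have : m = 0 := by omega
      rw [this]; exact dvd_zero r
    | succ d ih =>
      intro L h1 h2 h3 h4
      have hle : Module.finrank F L ≤ 2 * m := hV ▸ Submodule.finrank_le L
      have hLo : L ≤ (sympB m F).orthogonal L := by
        intro x hx n hn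
        show sympB m F n x = 0
        rw [sympB_apply]; exact h2 n hn x hx
      have h5 := LinearMap.BilinForm.finrank_orthogonal (sympB_nondegenerate (F := F) m) L
      by_cases hoL : (sympB m F).orthogonal L ≤ L
      · have heq : L = (sympB m F).orthogonal L := le_antisymm hLo hoL
        rw [← heq, hV] at h5
        have : Module.finrank F L = m := by omega
        rwa [this] at h3
      · obtain ⟨v, hvo, hvL⟩ := SetLike.not_le_iff_exists.mp hoL
        have hvo' : ∀ n ∈ L, sympForm m F n v = 0 := by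
          intro n hn
          rw [← sympB_apply]; exact hvo n hn
        have hv0 : v ≠ 0 := by
          rintro rfl; exact hvL L.zero_mem
        let ψ : ↥K →ₗ[F] (Fin m ⊕ Fin m → F) :=
          { toFun := fun k => (k : Matrix (Fin m ⊕ Fin m) (Fin m ⊕ Fin m) F) *ᵥ v
            map_add' := fun a b => by simp [Matrix.add_mulVec]
            map_smul' := fun c a => by simp [Matrix.smul_mulVec] }
        have hψ : ∀ k : ↥K, ψ k = (k : Matrix (Fin m ⊕ Fin m) (Fin m ⊕ Fin m) F) *ᵥ v :=
          fun _ => rfl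
        -- cancellation
        have hcancel : ∀ k ∈ K, k ≠ 0 → ∃ y ∈ K, ∀ x, y *ᵥ (k *ᵥ x) = x := by
          intro k hk hk0
          obtain ⟨y, hy, hky⟩ := hK.inv k hk hk0
          refine ⟨y, hy, fun x => ?_⟩
          rw [Matrix.mulVec_mulVec, hK.comm y hy k hk, hky, Matrix.one_mulVec]
        have hinj : Function.Injective ψ := by
          rw [← LinearMap.ker_eq_bot, LinearMap.ker_eq_bot']
          intro k hk
          by_contra hk0
          obtain ⟨y, -, hy⟩ := hcancel k k.2 (fun h => hk0 (Subtype.ext h))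
          apply hv0
          rw [← hy v, ← hψ, hk, Matrix.mulVec_zero]
        have hrank : Module.finrank F (LinearMap.range ψ) = r := by
          rw [LinearMap.finrank_range_of_inj hinj, hK.finrank_eq]
        have hdisj : L ⊓ LinearMap.range ψ = ⊥ := by
          rw [eq_bot_iff]
          rintro x ⟨hxL, k, rfl⟩
          by_cases hk0 : (k : Matrix (Fin m ⊕ Fin m) (Fin m ⊕ Fin m) F) = 0
          · rw [Submodule.mem_bot, hψ, hk0, Matrix.zero_mulVec]
          · exfalso
            obtain ⟨y, hyK, hy⟩ := hcancel k k.2 hk0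
            apply hvL
            rw [← hy v]
            exact h1 y hyK _ hxL
        have hsum : Module.finrank F ↥(L ⊔ LinearMap.range ψ) = Module.finrank F L + r := by
          have := Submodule.finrank_sup_add_finrank_inf_eq L (LinearMap.range ψ)
          rw [hdisj, finrank_bot, add_zero, hrank] at this
          exact this
        have hr0 : 0 < r := by
          rw [← hrank]
          apply Module.finrank_pos_iff_exists_ne_zero.mpr
          refine ⟨⟨v, ⟨1, by rw [hψ]; simp⟩⟩, fun h => hv0 (congrArg Subtype.val h)⟩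
        have hle' : Module.finrank F ↥(L ⊔ LinearMap.range ψ) ≤ 2 * m :=
          hV ▸ Submodule.finrank_le _
        refine ih (L ⊔ LinearMap.range ψ) ?_ ?_ ?_ ?_
        · intro k hk x hx
          obtain ⟨l, hl, _, ⟨k', rfl⟩, rfl⟩ := Submodule.mem_sup.mp hx
          rw [Matrix.mulVec_add]
          refine Submodule.add_mem_sup (h1 k hk l hl) ⟨⟨k, hk⟩ * k', ?_⟩
          rw [hψ, hψ, Matrix.mulVec_mulVec]
          rfl
        · intro x hx y hy
          obtain ⟨l, hl, _, ⟨k, rfl⟩, rfl⟩ := Submodule.mem_sup.mp hx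
          obtain ⟨l', hl', _, ⟨k', rfl⟩, rfl⟩ := Submodule.mem_sup.mp hy
          rw [sf_add_left, sf_add_right, sf_add_right, h2 l hl l' hl', hψ, hψ]
          have e1 : sympForm m F l ((k' : Matrix (Fin m ⊕ Fin m) (Fin m ⊕ Fin m) F) *ᵥ v) = 0 := by
            rw [← hs k' k'.2]; exact hvo' _ (h1 k' k'.2 l hl)
          have e2 : sympForm m F ((k : Matrix (Fin m ⊕ Fin m) (Fin m ⊕ Fin m) F) *ᵥ v) l' = 0 := by
            rw [sf_swap, ← hs k k.2, hvo' _ (h1 k k.2 l' hl'), neg_zero]
          have e3 : sympForm m F ((k : Matrix (Fin m ⊕ Fin m) (Fin m ⊕ Fin m) F) *ᵥ v)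
              ((k' : Matrix (Fin m ⊕ Fin m) (Fin m ⊕ Fin m) F) *ᵥ v) = 0 := by
            rw [← hs k' k'.2, Matrix.mulVec_mulVec]
            exact ha _ (K.mul_mem k'.2 k.2) v
          rw [e1, e2, e3]; ring
        · rw [hsum]; exact Dvd.dvd.add h3 (dvd_refl r)
        · omega
  exact key (2 * m) ⊥ (fun k _ x hx => by
      rw [Submodule.mem_bot] at hx ⊢; rw [hx, Matrix.mulVec_zero])
    (fun x hx y _ => by rw [Submodule.mem_bot] at hx; rw [hx, sf_zero_left])
    (by rw [finrank_bot]; exact dvd_zero r) (by omega)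

end Cfsg.Agent.Lib.Helper65.SpRow
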