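import Cfsg.Agent.Lib.Helper13.Asch.Defs

set_option autoImplicit false

/-! # A coordinate system gives a decomposition -/

namespace Cfsg.Agent.Lib.Helper65.SpRow

open Cfsg Cfsg.Geo Matrix
open scoped MatrixGroups

variable {ι : Type} [Fintype ι] [DecidableEq ι] {F : Type*} [Field F]

theorem isMDecomposition_of_coord {t m : ℕ} (ht : 2 ≤ t) (hm : 0 < m)
    (Ψ : (ι → F) ≃ₗ[F] (Fin t → Fin m → F)) (D : Fin t → Submodule F (ι → F))
    (h : ∀ i u, u ∈ D i ↔ ∀ j, j ≠ i → Ψ u j = 0) : IsMDecomposition m D := by
  classical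
  have hE : ∀ i (w : Fin m → F), Ψ.symm (Pi.single i w) ∈ D i := by
    intro i w
    rw [h]
    intro j hj
    rw [LinearEquiv.apply_symm_apply, Pi.single_eq_of_ne hj]
  refine ⟨ht, hm, ?_, ?_, ?_⟩
  · intro i
    have hD : D i = (LinearMap.range (LinearMap.single F (fun _ : Fin t => Fin m → F) i)).map
        Ψ.symm.toLinearMap := by
      ext u
      constructor
      · intro hu
        refine ⟨Ψ u, ⟨Ψ u i, ?_⟩, by simp⟩
        ext1 j
        by_cases hj : j = i
        · subst hj; simp
        · rw [(h i u).mp hu j hj]; simp [hj]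
      · rintro ⟨_, ⟨w, rfl⟩, rfl⟩
        exact hE i w
    have hinj : Function.Injective (LinearMap.single F (fun _ : Fin t => Fin m → F) i) := by
      intro a b hab
      have := congrFun hab i
      simpa using this
    rw [hD, LinearEquiv.finrank_map_eq, LinearMap.finrank_range_of_inj hinj]
    simp
  · rw [iSupIndep_def]
    intro i
    rw [Submodule.disjoint_def]
    intro u hu hu'
    have hK : (⨆ j, ⨆ (_ : j ≠ i), D j) ≤
        LinearMap.ker ((LinearMap.proj i : (Fin t → Fin m → F) →ₗ[F] (Fin m → F)) ∘ₗ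
          Ψ.toLinearMap) := by
      refine iSup_le fun j => iSup_le fun hj => ?_
      intro w hw
      rw [LinearMap.mem_ker]
      exact (h j w).mp hw i (Ne.symm hj)
    have h0 : Ψ u i = 0 := by
      have := hK hu'
      rwa [LinearMap.mem_ker] at this
    have : Ψ u = 0 := by
      ext1 j
      by_cases hj : j = i
      · rw [hj, h0]; rfl
      · exact (h i u).mp hu j hj
    simpa using this
  · rw [eq_top_iff]
    intro u _
    have hu : u = ∑ j, Ψ.symm (Pi.single j (Ψ u j)) := by
      rw [← map_sum, Finset.univ_sum_single, LinearEquiv.symm_apply_apply]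
    rw [hu]
    exact Submodule.sum_mem _ fun j _ => Submodule.mem_iSup_of_mem j (hE j _)

end Cfsg.Agent.Lib.Helper65.SpRow
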