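import Cfsg.Agent.Lib.Helper94.SpRow.Base
import Cfsg.Agent.Lib.Helper55.Asch.DecCore
import Cfsg.Agent.Lib.Helper65.SpRow.Coord

set_option autoImplicit false

/-! # E2: in `Sp_4(3)` the stabiliser of a pair of complementary totally singular planes
stabilises a pair of orthogonal non-degenerate planes -/

namespace Cfsg.Agent.Lib.Helper65.SpRow

open Cfsg Cfsg.Geo Matrix Cfsg.Agent.Lib.Helper94.SpRow
open scoped MatrixGroups

theorem toLin_injective' {ι : Type} [Fintype ι] [DecidableEq ι] {F : Type*} [Field F] (g : GL ι F) :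
    Function.Injective (Matrix.toLin' (g : Matrix ι ι F)) := by
  intro x y hxy
  rw [Matrix.toLin'_apply, Matrix.toLin'_apply] at hxy
  have h : ∀ z : ι → F, ((g⁻¹ : GL ι F) : Matrix ι ι F) *ᵥ ((g : Matrix ι ι F) *ᵥ z) = z := by
    intro z
    rw [Matrix.mulVec_mulVec, ← Units.val_mul, inv_mul_cancel, Units.val_one, Matrix.one_mulVec]
  rw [← h x, hxy, h y]

/-- an invertible matrix mapping every member of an `m`-decomposition into some member stabilises
the decomposition (as in helper86's `EBase`) -/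
theorem mem_decStab_of_le' {ι : Type} [Fintype ι] [DecidableEq ι] {F : Type*} [Field F] {t m : ℕ}
    {D : Fin t → Submodule F (ι → F)} (hD : IsMDecomposition m D) (g : GL ι F)
    (h : ∀ i, ∃ k, (D i).map (Matrix.toLin' (g : Matrix ι ι F)) ≤ D k) :
    g ∈ decompositionStabilizer D := by
  choose s hs using h
  have hinj := toLin_injective' g
  have heq : ∀ i, (D i).map (Matrix.toLin' (g : Matrix ι ι F)) = D (s i) := by
    intro i
    apply Submodule.eq_of_le_of_finrank_eq (hs i)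
    rw [hD.finrank_eq, ← (Submodule.equivMapOfInjective _ hinj (D i)).finrank_eq, hD.finrank_eq]
  have sinj : Function.Injective s := by
    intro i k hik
    have h1 : (D i).map (Matrix.toLin' (g : Matrix ι ι F)) =
        (D k).map (Matrix.toLin' (g : Matrix ι ι F)) := by rw [heq, heq, hik]
    have h2 := Submodule.map_injective_of_injective hinj h1
    refine hD.indep.injective (fun i h0 => ?_) h2
    have h3 := hD.finrank_eq i
    rw [h0, finrank_bot] at h3
    have := hD.pos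
    omega
  exact ⟨Equiv.ofBijective s (Finite.injective_iff_bijective.mp sinj), fun i => heq i⟩

variable {F : Type*} [Field F]

local notation "V" => (Fin 2 ⊕ Fin 2 → F)

/-- a frame adapted to a pair of complementary totally singular planes -/
structure Fr (D : Fin 2 → Submodule F V) (a0 a1 : V) (x0 x1 : V →ₗ[F] F) : Prop where
  a0_mem : a0 ∈ D 0
  a1_mem : a1 ∈ D 0
  dec : ∀ u, u - (x0 u • a0 + x1 u • a1) ∈ D 1
  x0_D1 : ∀ w ∈ D 1, x0 w = 0
  x1_D1 : ∀ w ∈ D 1, x1 w = 0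
  ts0 : ∀ u ∈ D 0, ∀ v ∈ D 0, sympForm 2 F u v = 0
  ts1 : ∀ u ∈ D 1, ∀ v ∈ D 1, sympForm 2 F u v = 0

theorem exists_frame (D : Fin 2 → Submodule F V) (hD : IsMDecomposition 2 D)
    (hts : ∀ i, IsTotallySingularFor (sympForm 2 F) (D i)) :
    ∃ (a0 a1 : V) (x0 x1 : V →ₗ[F] F), Fr D a0 a1 x0 x1 := by
  obtain ⟨Φ, hΦ⟩ := Cfsg.Agent.Lib.Helper55.Asch.exists_coord hD
  have hE : ∀ (w : Fin 2 → F), Φ.symm (Pi.single 0 w) ∈ D 0 := by
    intro w
    rw [hΦ]
    intro j hj
    rw [LinearEquiv.apply_symm_apply, Pi.single_eq_of_ne hj]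
  let x : Fin 2 → V →ₗ[F] F := fun i =>
    (LinearMap.proj i : (Fin 2 → F) →ₗ[F] F) ∘ₗ
      (LinearMap.proj 0 : (Fin 2 → Fin 2 → F) →ₗ[F] (Fin 2 → F)) ∘ₗ Φ.toLinearMap
  have hx : ∀ i u, x i u = Φ u 0 i := fun _ _ => rfl
  refine ⟨Φ.symm (Pi.single 0 (Pi.single 0 1)), Φ.symm (Pi.single 0 (Pi.single 1 1)), x 0, x 1,
    hE _, hE _, ?_, ?_, ?_, hts 0, hts 1⟩
  · intro u
    rw [hΦ]
    intro j hj
    have hj0 : j = 0 := by
      fin_cases j
      · rfl
      · exact absurd rfl hj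
    subst hj0
    rw [map_sub, map_add, map_smul, map_smul, LinearEquiv.apply_symm_apply,
      LinearEquiv.apply_symm_apply, hx, hx]
    ext k
    fin_cases k <;> simp
  · intro w hw
    rw [hx, (hΦ 1 w).mp hw 0 (by decide)]; rfl
  · intro w hw
    rw [hx, (hΦ 1 w).mp hw 0 (by decide)]; rfl

theorem Fr.part_mem {D : Fin 2 → Submodule F V} {a0 a1 : V} {x0 x1 : V →ₗ[F] F}
    (h : Fr D a0 a1 x0 x1) (u : V) : x0 u • a0 + x1 u • a1 ∈ D 0 :=
  (D 0).add_mem ((D 0).smul_mem _ h.a0_mem) ((D 0).smul_mem _ h.a1_mem)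

/-- the form in coordinates -/
theorem Fr.form {D : Fin 2 → Submodule F V} {a0 a1 : V} {x0 x1 : V →ₗ[F] F}
    (h : Fr D a0 a1 x0 x1) (u v : V) :
    sympForm 2 F u v = x0 u * sympForm 2 F a0 v + x1 u * sympForm 2 F a1 v
      - x0 v * sympForm 2 F a0 u - x1 v * sympForm 2 F a1 u := by
  have e1 : sympForm 2 F u v = sympForm 2 F (x0 u • a0 + x1 u • a1) v
      + sympForm 2 F (u - (x0 u • a0 + x1 u • a1)) v := by
    rw [← sf_add_left]; congr 1; abel
  have e2 : sympForm 2 F (u - (x0 u • a0 + x1 u • a1)) v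
      = sympForm 2 F (u - (x0 u • a0 + x1 u • a1)) (x0 v • a0 + x1 v • a1) := by
    have : sympForm 2 F (u - (x0 u • a0 + x1 u • a1)) v
        = sympForm 2 F (u - (x0 u • a0 + x1 u • a1)) (x0 v • a0 + x1 v • a1)
          + sympForm 2 F (u - (x0 u • a0 + x1 u • a1)) (v - (x0 v • a0 + x1 v • a1)) := by
      rw [← sf_add_right]; congr 1; abel
    rw [this, h.ts1 _ (h.dec u) _ (h.dec v), add_zero]
  have e3 : sympForm 2 F (u - (x0 u • a0 + x1 u • a1)) (x0 v • a0 + x1 v • a1)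
      = - sympForm 2 F (x0 v • a0 + x1 v • a1) u := by
    rw [sf_swap, sf_sub_right, h.ts0 _ (h.part_mem v) _ (h.part_mem u), sub_zero]
  rw [e1, e2, e3, sf_add_left, sf_smul_left, sf_smul_left, sf_add_left, sf_smul_left,
    sf_smul_left]
  ring

theorem Fr.eq_zero {D : Fin 2 → Submodule F V} {a0 a1 : V} {x0 x1 : V →ₗ[F] F}
    (h : Fr D a0 a1 x0 x1) {u : V} (h0 : x0 u = 0) (h1 : x1 u = 0)
    (h2 : sympForm 2 F a0 u = 0) (h3 : sympForm 2 F a1 u = 0) : u = 0 := by
  by_contra hu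
  obtain ⟨z, hz⟩ := sf_exists_ne hu
  apply hz
  rw [h.form z u, h0, h1, h2, h3]
  ring

theorem Fr.y_D0 {D : Fin 2 → Submodule F V} {a0 a1 : V} {x0 x1 : V →ₗ[F] F}
    (h : Fr D a0 a1 x0 x1) {w : V} (hw : w ∈ D 0) :
    sympForm 2 F a0 w = 0 ∧ sympForm 2 F a1 w = 0 :=
  ⟨h.ts0 _ h.a0_mem _ hw, h.ts0 _ h.a1_mem _ hw⟩

/-- expansion of a linear functional vanishing on `D 1` -/
theorem Fr.expand1 {D : Fin 2 → Submodule F V} {a0 a1 : V} {x0 x1 : V →ₗ[F] F}
    (h : Fr D a0 a1 x0 x1) (φ : V →ₗ[F] F) (hφ : ∀ w ∈ D 1, φ w = 0) (u : V) :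
    φ u = x0 u * φ a0 + x1 u * φ a1 := by
  have := hφ _ (h.dec u)
  rw [map_sub, map_add, map_smul, map_smul, smul_eq_mul, smul_eq_mul] at this
  linear_combination this

/-- the functional `u ↦ f (a, g u)` -/
noncomputable def yG (a : V) (g : Matrix (Fin 2 ⊕ Fin 2) (Fin 2 ⊕ Fin 2) F) : V →ₗ[F] F where
  toFun u := sympForm 2 F a (g *ᵥ u)
  map_add' u v := by rw [Matrix.mulVec_add, sf_add_right]
  map_smul' c u := by rw [Matrix.mulVec_smul, sf_smul_right]; rfl

theorem yG_apply (a : V) (g : Matrix (Fin 2 ⊕ Fin 2) (Fin 2 ⊕ Fin 2) F) (u : V) :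
    yG a g u = sympForm 2 F a (g *ᵥ u) := rfl

/-- membership in the plane `U ε` -/
def InU (a0 a1 : V) (x0 x1 : V →ₗ[F] F) (ε : F) (u : V) : Prop :=
  sympForm 2 F a0 u = -(ε * x1 u) ∧ sympForm 2 F a1 u = ε * x0 u

theorem ts_pair_three [Fintype F] (hq : Fintype.card F = 3)
    (D : Fin 2 → Submodule F (Fin 2 ⊕ Fin 2 → F)) (hD : IsMDecomposition 2 D)
    (hts : ∀ i, IsTotallySingularFor (sympForm 2 F) (D i)) :
    ∃ D' : Fin 2 → Submodule F (Fin 2 ⊕ Fin 2 → F),
      IsNondegenerateMDecomposition (sympForm 2 F) 2 D' ∧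
      decompositionStabilizer D ⊓ spGL 2 F ≤ decompositionStabilizer D' := by
  obtain ⟨a0, a1, x0, x1, h⟩ := exists_frame D hD hts
  have hch : CharP F 3 := by
    haveI : Fact (Nat.Prime 3) := ⟨Nat.prime_three⟩
    exact charP_of_card_eq_prime hq
  have h2 : (2 : F) ≠ 0 := by
    intro h0
    have : ((2 : ℕ) : F) = 0 := by exact_mod_cast h0
    rw [CharP.cast_eq_zero_iff F 3] at this
    omega
  have hsq : ∀ d : F, d ≠ 0 → d = 1 ∨ d = -1 := by
    intro d hd
    have := FiniteField.pow_card_sub_one_eq_one d hd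
    rw [hq] at this
    have h' : (d - 1) * (d + 1) = 0 := by
      have e : d ^ (3 - 1) = d ^ 2 := by norm_num
      rw [e] at this
      linear_combination this
    rcases mul_eq_zero.mp h' with h1 | h1
    · left; linear_combination h1
    · right; linear_combination h1
  -- the linear functionals `y`
  let y0 : V →ₗ[F] F := yG a0 1
  let y1 : V →ₗ[F] F := yG a1 1
  have hy0 : ∀ u, y0 u = sympForm 2 F a0 u := fun u => by
    show sympForm 2 F a0 ((1 : Matrix _ _ F) *ᵥ u) = _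
    rw [Matrix.one_mulVec]
  have hy1 : ∀ u, y1 u = sympForm 2 F a1 u := fun u => by
    show sympForm 2 F a1 ((1 : Matrix _ _ F) *ᵥ u) = _
    rw [Matrix.one_mulVec]
  -- the new coordinates
  let Ψl : V →ₗ[F] (Fin 2 → Fin 2 → F) :=
    LinearMap.pi ![LinearMap.pi ![y0 - x1, y1 + x0], LinearMap.pi ![y0 + x1, y1 - x0]]
  have hΨ00 : ∀ u, Ψl u 0 0 = y0 u - x1 u := fun _ => rfl
  have hΨ01 : ∀ u, Ψl u 0 1 = y1 u + x0 u := fun _ => rfl
  have hΨ10 : ∀ u, Ψl u 1 0 = y0 u + x1 u := fun _ => rfl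
  have hΨ11 : ∀ u, Ψl u 1 1 = y1 u - x0 u := fun _ => rfl
  have hinj : Function.Injective Ψl := by
    rw [← LinearMap.ker_eq_bot, LinearMap.ker_eq_bot']
    intro u hu
    have e00 := hΨ00 u
    have e01 := hΨ01 u
    have e10 := hΨ10 u
    have e11 := hΨ11 u
    rw [hu] at e00 e01 e10 e11
    simp only [Pi.zero_apply] at e00 e01 e10 e11
    have hx1 : x1 u = 0 := by
      have : (2 : F) * x1 u = 0 := by linear_combination e00 - e10
      exact (mul_eq_zero.mp this).resolve_left h2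
    have hx0 : x0 u = 0 := by
      have : (2 : F) * x0 u = 0 := by linear_combination e11 - e01
      exact (mul_eq_zero.mp this).resolve_left h2
    apply h.eq_zero hx0 hx1
    · rw [← hy0]; linear_combination -e00 + hx1
    · rw [← hy1]; linear_combination -e01 - hx0
  let Ψ : V ≃ₗ[F] (Fin 2 → Fin 2 → F) := LinearMap.linearEquivOfInjective Ψl hinj (by
    rw [Module.finrank_fintype_fun_eq_card, Module.finrank_pi_fintype]
    simp)
  have hΨ : ∀ u, Ψ u = Ψl u := fun u => LinearMap.linearEquivOfInjective_apply _ _ _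
  let D' : Fin 2 → Submodule F V := ![LinearMap.ker (LinearMap.pi ![y0 + x1, y1 - x0]),
    LinearMap.ker (LinearMap.pi ![y0 - x1, y1 + x0])]
  have hD'0 : ∀ u, u ∈ D' 0 ↔ InU a0 a1 x0 x1 1 u := by
    intro u
    show u ∈ LinearMap.ker (LinearMap.pi ![y0 + x1, y1 - x0]) ↔ _
    rw [LinearMap.mem_ker, InU, ← hy0, ← hy1]
    constructor
    · intro hu
      have e0 := congrFun hu 0
      have e1 := congrFun hu 1
      simp only [LinearMap.pi_apply, Matrix.cons_val_zero, Matrix.cons_val_one,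
        LinearMap.add_apply, LinearMap.sub_apply, Pi.zero_apply] at e0 e1
      exact ⟨by linear_combination e0, by linear_combination e1⟩
    · rintro ⟨e0, e1⟩
      ext k
      fin_cases k
      · simp only [LinearMap.pi_apply, Fin.zero_eta, Matrix.cons_val_zero,
          LinearMap.add_apply, Pi.zero_apply]
        linear_combination e0
      · simp only [LinearMap.pi_apply, Fin.mk_one, Matrix.cons_val_one, Matrix.cons_val_zero,
          LinearMap.sub_apply, Pi.zero_apply]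
        linear_combination e1
  have hD'1 : ∀ u, u ∈ D' 1 ↔ InU a0 a1 x0 x1 (-1) u := by
    intro u
    show u ∈ LinearMap.ker (LinearMap.pi ![y0 - x1, y1 + x0]) ↔ _
    rw [LinearMap.mem_ker, InU, ← hy0, ← hy1]
    constructor
    · intro hu
      have e0 := congrFun hu 0
      have e1 := congrFun hu 1
      simp only [LinearMap.pi_apply, Matrix.cons_val_zero, Matrix.cons_val_one,
        LinearMap.add_apply, LinearMap.sub_apply, Pi.zero_apply] at e0 e1
      exact ⟨by linear_combination e0, by linear_combination e1⟩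
    · rintro ⟨e0, e1⟩
      ext k
      fin_cases k
      · simp only [LinearMap.pi_apply, Fin.zero_eta, Matrix.cons_val_zero,
          LinearMap.sub_apply, Pi.zero_apply]
        linear_combination e0
      · simp only [LinearMap.pi_apply, Fin.mk_one, Matrix.cons_val_one, Matrix.cons_val_zero,
          LinearMap.add_apply, Pi.zero_apply]
        linear_combination e1
  have hdec : IsMDecomposition 2 D' := by
    apply isMDecomposition_of_coord le_rfl (by norm_num) Ψ D'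
    intro i u
    fin_cases i
    · show u ∈ D' 0 ↔ _
      rw [hD'0, InU, ← hy0, ← hy1]
      constructor
      · rintro ⟨e0, e1⟩ j hj
        have hj1 : j = 1 := by
          fin_cases j
          · exact absurd rfl hj
          · rfl
        subst hj1
        rw [hΨ]
        ext k
        fin_cases k
        · show Ψl u 1 0 = 0
          rw [hΨ10]; linear_combination e0
        · show Ψl u 1 1 = 0
          rw [hΨ11]; linear_combination e1
      · intro hu
        have := hu 1 (by decide)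
        rw [hΨ] at this
        have e0 := congrFun this 0
        have e1 := congrFun this 1
        rw [hΨ10] at e0
        rw [hΨ11] at e1
        simp only [Pi.zero_apply] at e0 e1
        exact ⟨by linear_combination e0, by linear_combination e1⟩
    · show u ∈ D' 1 ↔ _
      rw [hD'1, InU, ← hy0, ← hy1]
      constructor
      · rintro ⟨e0, e1⟩ j hj
        have hj1 : j = 0 := by
          fin_cases j
          · rfl
          · exact absurd rfl hj
        subst hj1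
        rw [hΨ]
        ext k
        fin_cases k
        · show Ψl u 0 0 = 0
          rw [hΨ00]; linear_combination e0
        · show Ψl u 0 1 = 0
          rw [hΨ01]; linear_combination e1
      · intro hu
        have := hu 0 (by decide)
        rw [hΨ] at this
        have e0 := congrFun this 0
        have e1 := congrFun this 1
        rw [hΨ00] at e0
        rw [hΨ01] at e1
        simp only [Pi.zero_apply] at e0 e1
        exact ⟨by linear_combination e0, by linear_combination e1⟩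
  -- membership, uniformly
  have hmemU : ∀ (ε : F), ε = 1 ∨ ε = -1 → ∃ k, ∀ u, InU a0 a1 x0 x1 ε u → u ∈ D' k := by
    rintro ε (rfl | rfl)
    · exact ⟨0, fun u hu => (hD'0 u).mpr hu⟩
    · exact ⟨1, fun u hu => (hD'1 u).mpr hu⟩
  have hUmem : ∀ i, ∃ ε : F, (ε = 1 ∨ ε = -1) ∧ ∀ u, u ∈ D' i → InU a0 a1 x0 x1 ε u := by
    intro i
    fin_cases i
    · exact ⟨1, Or.inl rfl, fun u hu => (hD'0 u).mp hu⟩
    · exact ⟨-1, Or.inr rfl, fun u hu => (hD'1 u).mp hu⟩
  -- orthogonality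
  have horth : ∀ (ε : F) u v, InU a0 a1 x0 x1 ε u → InU a0 a1 x0 x1 (-ε) v →
      sympForm 2 F u v = 0 := by
    rintro ε u v ⟨hu0, hu1⟩ ⟨hv0, hv1⟩
    rw [h.form u v, hu0, hu1, hv0, hv1]
    ring
  have horth' : ∀ i j, i ≠ j → ∀ u ∈ D' i, ∀ v ∈ D' j, sympForm 2 F u v = 0 := by
    intro i j hij u hu v hv
    fin_cases i <;> fin_cases j
    · exact absurd rfl hij
    · exact horth 1 u v ((hD'0 u).mp hu) ((hD'1 v).mp hv)
    · refine horth (-1) u v ((hD'1 u).mp hu) ?_
      rw [neg_neg]; exact (hD'0 v).mp hv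
    · exact absurd rfl hij
  -- splitting
  have hsplit : ∀ z : V, ∃ z0 ∈ D' 0, ∃ z1 ∈ D' 1, z = z0 + z1 := by
    intro z
    have hz : z ∈ D' 0 ⊔ D' 1 := by
      have h1 : iSup D' ≤ D' 0 ⊔ D' 1 := by
        refine iSup_le fun i => ?_
        fin_cases i
        · exact le_sup_left
        · exact le_sup_right
      apply h1
      rw [hdec.iSup_eq_top]; trivial
    obtain ⟨z0, hz0, z1, hz1, hzz⟩ := Submodule.mem_sup.mp hz
    exact ⟨z0, hz0, z1, hz1, hzz.symm⟩
  have hnd : ∀ i, IsNondegenerateOn (sympForm 2 F) (D' i) := by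
    intro i w hw hw0
    obtain ⟨z, hz⟩ := sf_exists_ne hw0
    obtain ⟨z0, hz0, z1, hz1, rfl⟩ := hsplit z
    have key : ∃ x ∈ D' i, sympForm 2 F x w ≠ 0 := by
      rw [sf_add_left] at hz
      fin_cases i
      · refine ⟨z0, hz0, ?_⟩
        rwa [horth' 1 0 (by decide) z1 hz1 w hw, add_zero] at hz
      · refine ⟨z1, hz1, ?_⟩
        rwa [horth' 0 1 (by decide) z0 hz0 w hw, zero_add] at hz
    obtain ⟨x, hx, hxw⟩ := key
    refine ⟨⟨x, hx, hxw⟩, ⟨x, hx, ?_⟩⟩
    rw [sf_swap]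
    exact neg_ne_zero.mpr hxw
  refine ⟨D', ⟨hdec, hnd, horth'⟩, ?_⟩
  -- dual vectors
  obtain ⟨b0, hb00, hb01⟩ : ∃ b0 : V, sympForm 2 F a0 b0 = 1 ∧ sympForm 2 F a1 b0 = 0 := by
    refine ⟨Ψ.symm ![![1, 0], ![1, 0]], ?_⟩
    have hb : Ψl (Ψ.symm ![![1, 0], ![1, 0]]) = ![![1, 0], ![1, 0]] := by
      rw [← hΨ, LinearEquiv.apply_symm_apply]
    set b := Ψ.symm ![![1, 0], ![1, 0]]
    have e00 := hΨ00 b
    have e01 := hΨ01 b
    have e10 := hΨ10 b
    have e11 := hΨ11 b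
    rw [hb] at e00 e01 e10 e11
    simp only [Matrix.cons_val_zero, Matrix.cons_val_one] at e00 e01 e10 e11
    rw [← hy0, ← hy1]
    constructor
    · have : (2 : F) * y0 b = 2 * 1 := by linear_combination -e00 - e10
      exact mul_left_cancel₀ h2 this
    · have : (2 : F) * y1 b = 2 * 0 := by linear_combination -e01 - e11
      exact mul_left_cancel₀ h2 this
  obtain ⟨b1, hb10, hb11⟩ : ∃ b1 : V, sympForm 2 F a0 b1 = 0 ∧ sympForm 2 F a1 b1 = 1 := by
    refine ⟨Ψ.symm ![![0, 1], ![0, 1]], ?_⟩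
    have hb : Ψl (Ψ.symm ![![0, 1], ![0, 1]]) = ![![0, 1], ![0, 1]] := by
      rw [← hΨ, LinearEquiv.apply_symm_apply]
    set b := Ψ.symm ![![0, 1], ![0, 1]]
    have e00 := hΨ00 b
    have e01 := hΨ01 b
    have e10 := hΨ10 b
    have e11 := hΨ11 b
    rw [hb] at e00 e01 e10 e11
    simp only [Matrix.cons_val_zero, Matrix.cons_val_one] at e00 e01 e10 e11
    rw [← hy0, ← hy1]
    constructor
    · have : (2 : F) * y0 b = 2 * 0 := by linear_combination -e00 - e10
      exact mul_left_cancel₀ h2 this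
    · have : (2 : F) * y1 b = 2 * 1 := by linear_combination -e01 - e11
      exact mul_left_cancel₀ h2 this
  -- the stabiliser
  intro g hg
  obtain ⟨⟨σ, hσ⟩, hgSp⟩ := Subgroup.mem_inf.mp hg
  set gm : Matrix (Fin 2 ⊕ Fin 2) (Fin 2 ⊕ Fin 2) F :=
    (g : Matrix (Fin 2 ⊕ Fin 2) (Fin 2 ⊕ Fin 2) F) with hgm
  have hiso : ∀ u v, sympForm 2 F (gm *ᵥ u) (gm *ᵥ v) = sympForm 2 F u v := mem_spGL.1 hgSp
  have hmap : ∀ i, ∀ w ∈ D i, gm *ᵥ w ∈ D (σ i) := by
    intro i w hw
    rw [← hσ i]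
    exact ⟨w, hw, by rw [Matrix.toLin'_apply]⟩
  apply mem_decStab_of_le' hdec
  -- it suffices to move `InU`
  suffices hmove : ∃ d : F, (d = 1 ∨ d = -1) ∧ ∀ ε u, ε * ε = 1 → InU a0 a1 x0 x1 ε u →
      InU a0 a1 x0 x1 (ε * d) (gm *ᵥ u) by
    obtain ⟨d, hd, hmv⟩ := hmove
    intro i
    obtain ⟨ε, hε, hi⟩ := hUmem i
    obtain ⟨k, hk⟩ := hmemU (ε * d) (by
      rcases hε with rfl | rfl <;> rcases hd with rfl | rfl <;> simp)
    refine ⟨k, ?_⟩
    rintro _ ⟨u, hu, rfl⟩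
    rw [Matrix.toLin'_apply]
    exact hk _ (hmv ε u (by rcases hε with rfl | rfl <;> ring) (hi u hu))
  have hσ01 : (σ 0 = 0 ∧ σ 1 = 1) ∨ (σ 0 = 1 ∧ σ 1 = 0) := by
    have hne : σ 0 ≠ σ 1 := fun hh => absurd (σ.injective hh) (by decide)
    have c0 : σ 0 = 0 ∨ σ 0 = 1 := by
      generalize σ 0 = z
      fin_cases z
      · exact Or.inl rfl
      · exact Or.inr rfl
    have c1 : σ 1 = 0 ∨ σ 1 = 1 := by
      generalize σ 1 = z
      fin_cases z
      · exact Or.inl rfl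
      · exact Or.inr rfl
    rcases c0 with h0 | h0 <;> rcases c1 with h1 | h1
    · exact absurd (h0.trans h1.symm) hne
    · exact Or.inl ⟨h0, h1⟩
    · exact Or.inr ⟨h0, h1⟩
    · exact absurd (h0.trans h1.symm) hne
  rcases hσ01 with ⟨hs0, hs1⟩ | ⟨hs0, hs1⟩
  · -- `g` fixes both planes
    have hm0 : ∀ w ∈ D 0, gm *ᵥ w ∈ D 0 := fun w hw => hs0 ▸ hmap 0 w hw
    have hm1 : ∀ w ∈ D 1, gm *ᵥ w ∈ D 1 := fun w hw => hs1 ▸ hmap 1 w hw
    set α := x0 (gm *ᵥ a0) with hα
    set γ := x1 (gm *ᵥ a0) with hγ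
    set β := x0 (gm *ᵥ a1) with hβ
    set δ := x1 (gm *ᵥ a1) with hδ
    have hX0 : ∀ u, x0 (gm *ᵥ u) = x0 u * α + x1 u * β :=
      h.expand1 (x0 ∘ₗ Matrix.toLin' gm) (fun w hw => by
        rw [LinearMap.comp_apply, Matrix.toLin'_apply]; exact h.x0_D1 _ (hm1 w hw))
    have hX1 : ∀ u, x1 (gm *ᵥ u) = x0 u * γ + x1 u * δ :=
      h.expand1 (x1 ∘ₗ Matrix.toLin' gm) (fun w hw => by
        rw [LinearMap.comp_apply, Matrix.toLin'_apply]; exact h.x1_D1 _ (hm1 w hw))
    have hY0 : ∀ u, sympForm 2 F a0 u =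
        α * sympForm 2 F a0 (gm *ᵥ u) + γ * sympForm 2 F a1 (gm *ᵥ u) := by
      intro u
      rw [← hiso a0 u, h.form (gm *ᵥ a0) (gm *ᵥ u), (h.y_D0 (hm0 a0 h.a0_mem)).1,
        (h.y_D0 (hm0 a0 h.a0_mem)).2]
      ring
    have hY1 : ∀ u, sympForm 2 F a1 u =
        β * sympForm 2 F a0 (gm *ᵥ u) + δ * sympForm 2 F a1 (gm *ᵥ u) := by
      intro u
      rw [← hiso a1 u, h.form (gm *ᵥ a1) (gm *ᵥ u), (h.y_D0 (hm0 a1 h.a1_mem)).1,
        (h.y_D0 (hm0 a1 h.a1_mem)).2]
      ring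
    have hd0 : α * δ - β * γ ≠ 0 := by
      intro h0
      have e1 := hY0 b0
      have e2 := hY1 b0
      have e3 := hY0 b1
      have e4 := hY1 b1
      rw [hb00] at e1
      rw [hb01] at e2
      rw [hb10] at e3
      rw [hb11] at e4
      have : (1 : F) = (α * δ - β * γ) * (sympForm 2 F a0 (gm *ᵥ b0) * sympForm 2 F a1 (gm *ᵥ b1)
          - sympForm 2 F a1 (gm *ᵥ b0) * sympForm 2 F a0 (gm *ᵥ b1)) := by
        linear_combination e1
          + (α * sympForm 2 F a0 (gm *ᵥ b0) + γ * sympForm 2 F a1 (gm *ᵥ b0)) * e4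
          - (α * sympForm 2 F a0 (gm *ᵥ b1) + γ * sympForm 2 F a1 (gm *ᵥ b1)) * e2
      rw [h0, zero_mul] at this
      exact one_ne_zero this
    refine ⟨α * δ - β * γ, hsq _ hd0, ?_⟩
    have hdd : (α * δ - β * γ) * (α * δ - β * γ) = 1 := by
      rcases hsq _ hd0 with h1 | h1 <;> rw [h1] <;> ring
    rintro ε u - ⟨hu0, hu1⟩
    have e0 := hY0 u
    have e1 := hY1 u
    rw [hu0] at e0
    rw [hu1] at e1
    constructor
    · rw [hX1]
      linear_combination (-(sympForm 2 F a0 (gm *ᵥ u))) * hdd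
        - (α * δ - β * γ) * δ * e0 + (α * δ - β * γ) * γ * e1
    · rw [hX0]
      linear_combination (-(sympForm 2 F a1 (gm *ᵥ u))) * hdd
        - (α * δ - β * γ) * α * e1 + (α * δ - β * γ) * β * e0
  · -- `g` swaps the planes
    have hm0 : ∀ w ∈ D 0, gm *ᵥ w ∈ D 1 := fun w hw => hs0 ▸ hmap 0 w hw
    have hm1 : ∀ w ∈ D 1, gm *ᵥ w ∈ D 0 := fun w hw => hs1 ▸ hmap 1 w hw
    set e00 := sympForm 2 F a0 (gm *ᵥ a0) with he00
    set e10 := sympForm 2 F a1 (gm *ᵥ a0) with he10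
    set e01 := sympForm 2 F a0 (gm *ᵥ a1) with he01
    set e11 := sympForm 2 F a1 (gm *ᵥ a1) with he11
    have hY0 : ∀ u, sympForm 2 F a0 (gm *ᵥ u) = x0 u * e00 + x1 u * e01 :=
      h.expand1 (yG a0 gm) (fun w hw => (h.y_D0 (hm1 w hw)).1)
    have hY1 : ∀ u, sympForm 2 F a1 (gm *ᵥ u) = x0 u * e10 + x1 u * e11 :=
      h.expand1 (yG a1 gm) (fun w hw => (h.y_D0 (hm1 w hw)).2)
    have hy0' : ∀ u, sympForm 2 F a0 u = -(x0 (gm *ᵥ u) * e00 + x1 (gm *ᵥ u) * e10) := by
      intro u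
      rw [← hiso a0 u, h.form (gm *ᵥ a0) (gm *ᵥ u), h.x0_D1 _ (hm0 a0 h.a0_mem),
        h.x1_D1 _ (hm0 a0 h.a0_mem)]
      ring
    have hy1' : ∀ u, sympForm 2 F a1 u = -(x0 (gm *ᵥ u) * e01 + x1 (gm *ᵥ u) * e11) := by
      intro u
      rw [← hiso a1 u, h.form (gm *ᵥ a1) (gm *ᵥ u), h.x0_D1 _ (hm0 a1 h.a1_mem),
        h.x1_D1 _ (hm0 a1 h.a1_mem)]
      ring
    have hd0 : e00 * e11 - e01 * e10 ≠ 0 := by
      intro h0
      have c1 := hy0' b0
      have c2 := hy1' b0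
      have c3 := hy0' b1
      have c4 := hy1' b1
      rw [hb00] at c1
      rw [hb01] at c2
      rw [hb10] at c3
      rw [hb11] at c4
      have : (1 : F) = (e00 * e11 - e01 * e10) * (x0 (gm *ᵥ b0) * x1 (gm *ᵥ b1)
          - x1 (gm *ᵥ b0) * x0 (gm *ᵥ b1)) := by
        linear_combination c1
          + (-(x0 (gm *ᵥ b0) * e00 + x1 (gm *ᵥ b0) * e10)) * c4
          - (-(x0 (gm *ᵥ b1) * e00 + x1 (gm *ᵥ b1) * e10)) * c2
      rw [h0, zero_mul] at this
      exact one_ne_zero this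
    refine ⟨e00 * e11 - e01 * e10, hsq _ hd0, ?_⟩
    rintro ε u hε ⟨hu0, hu1⟩
    have A := hy0' u
    have B := hy1' u
    rw [hu0] at A
    rw [hu1] at B
    constructor
    · rw [hY0]
      linear_combination (-(x0 u * e00 + x1 u * e01)) * hε + ε * e00 * B - ε * e01 * A
    · rw [hY1]
      linear_combination (-(x0 u * e10 + x1 u * e11)) * hε + ε * e10 * B - ε * e11 * A

end Cfsg.Agent.Lib.Helper65.SpRow
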