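import Cfsg.Agent.Lib.Helper94.SpRow.Base

set_option autoImplicit false

namespace Cfsg.Agent.Lib.Helper65.SpRow

open Cfsg Cfsg.Geo Matrix Cfsg.Agent.Lib.Helper94.SpRow
open scoped MatrixGroups

variable {F : Type*} [Field F] {m : ℕ}

theorem sp_not_le_subfield (hm : 1 ≤ m) (F₀ : Subfield F) (hF₀ : F₀ ≠ ⊤)
    (P : GL (Fin m ⊕ Fin m) F) : ¬ spGL m F ≤ subfieldSubgroup F₀ P := by
  intro hle
  obtain ⟨t, ht⟩ : ∃ t, t ∉ F₀ := by
    by_contra h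
    push Not at h
    exact hF₀ (eq_top_iff.2 fun x _ => h x)
  let i0 : Fin m ⊕ Fin m := Sum.inl ⟨0, hm⟩
  set v : Fin m ⊕ Fin m → F := (P : Matrix (Fin m ⊕ Fin m) (Fin m ⊕ Fin m) F) *ᵥ Pi.single i0 1 with hv
  have hPi : ∀ x : Fin m ⊕ Fin m → F, ((P⁻¹ : GL (Fin m ⊕ Fin m) F) : Matrix (Fin m ⊕ Fin m) (Fin m ⊕ Fin m) F) *ᵥ
      ((P : Matrix (Fin m ⊕ Fin m) (Fin m ⊕ Fin m) F) *ᵥ x) = x := by
    intro x
    rw [Matrix.mulVec_mulVec, ← Units.val_mul, inv_mul_cancel, Units.val_one, Matrix.one_mulVec]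
  have hPi' : ∀ x : Fin m ⊕ Fin m → F, (P : Matrix (Fin m ⊕ Fin m) (Fin m ⊕ Fin m) F) *ᵥ
      (((P⁻¹ : GL (Fin m ⊕ Fin m) F) : Matrix (Fin m ⊕ Fin m) (Fin m ⊕ Fin m) F) *ᵥ x) = x := by
    intro x
    rw [Matrix.mulVec_mulVec, ← Units.val_mul, mul_inv_cancel, Units.val_one, Matrix.one_mulVec]
  have hv0 : v ≠ 0 := by
    intro h0
    have := hPi (Pi.single i0 1)
    rw [← hv, h0, Matrix.mulVec_zero] at this
    have h1 := congrFun this i0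
    simp at h1
  -- the functional
  let φ : (Fin m ⊕ Fin m → F) →ₗ[F] F :=
    { toFun := fun y => sympForm m F ((P : Matrix (Fin m ⊕ Fin m) (Fin m ⊕ Fin m) F) *ᵥ y) v
      map_add' := fun x y => by rw [Matrix.mulVec_add, sf_add_left]
      map_smul' := fun c x => by rw [Matrix.mulVec_smul, sf_smul_left]; rfl }
  have hφ : ∀ y, φ y = sympForm m F ((P : Matrix (Fin m ⊕ Fin m) (Fin m ⊕ Fin m) F) *ᵥ y) v := fun _ => rfl
  obtain ⟨j, hj⟩ : ∃ j, φ (Pi.single j 1) ≠ 0 := by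
    by_contra h
    push Not at h
    have h0 : φ = 0 := by
      apply LinearMap.pi_ext'
      intro i
      ext
      simpa using h i
    obtain ⟨x, hx⟩ := sf_exists_ne hv0
    apply hx
    have := hφ (((P⁻¹ : GL (Fin m ⊕ Fin m) F) : Matrix (Fin m ⊕ Fin m) (Fin m ⊕ Fin m) F) *ᵥ x)
    rw [hPi', h0] at this
    exact this.symm
  have hji : j ≠ i0 := by
    rintro rfl
    apply hj
    rw [hφ, ← hv, sf_self]
  have h1 : tvG v (t / φ (Pi.single j 1)) ∈ subfieldSubgroup F₀ P := hle (tvG_mem _ _)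
  obtain ⟨y, hy, hyτ⟩ := h1
  have hyτ' : P * y * P⁻¹ = tvG v (t / φ (Pi.single j 1)) := hyτ
  have hy2 : y = P⁻¹ * tvG v (t / φ (Pi.single j 1)) * P := by
    rw [← hyτ']; group
  have hcol : (y : Matrix (Fin m ⊕ Fin m) (Fin m ⊕ Fin m) F) *ᵥ Pi.single j 1 = Pi.single j 1 + t • Pi.single i0 1 := by
    rw [hy2, Units.val_mul, Units.val_mul, ← Matrix.mulVec_mulVec, ← Matrix.mulVec_mulVec,
      tvG_mulVec, ← hφ, div_mul_cancel₀ _ hj, Matrix.mulVec_add, Matrix.mulVec_smul, hPi, hv, hPi]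
  obtain ⟨g0, ⟨g, rfl⟩, s, hs, hgs⟩ := Subgroup.mem_sup_of_normal_right.1 hy
  obtain ⟨c, hc⟩ := (mem_scalars_iff s).1 hs
  have hmat : ∀ a b, (y : Matrix (Fin m ⊕ Fin m) (Fin m ⊕ Fin m) F) a b = ((g : Matrix (Fin m ⊕ Fin m) (Fin m ⊕ Fin m) F₀) a b : F) * c := by
    intro a b
    rw [← hgs, Units.val_mul, hc, Matrix.mul_smul, mul_one, Matrix.smul_apply, smul_eq_mul,
      mul_comm]
    rfl
  have hent : ∀ a, (y : Matrix (Fin m ⊕ Fin m) (Fin m ⊕ Fin m) F) a j = (Pi.single j 1 + t • Pi.single i0 1 : _ → F) a := by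
    intro a
    rw [← hcol]
    simp
  have e1 : ((g : Matrix (Fin m ⊕ Fin m) (Fin m ⊕ Fin m) F₀) j j : F) * c = 1 := by
    rw [← hmat, hent]
    simp [hji]
  have e2 : ((g : Matrix (Fin m ⊕ Fin m) (Fin m ⊕ Fin m) F₀) i0 j : F) * c = t := by
    rw [← hmat, hent]
    simp [hji.symm, Ne.symm hji]
  have hcF : (c : F) ∈ F₀ := by
    have : (c : F) = ((g : Matrix (Fin m ⊕ Fin m) (Fin m ⊕ Fin m) F₀) j j : F)⁻¹ := (eq_inv_of_mul_eq_one_right e1)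
    rw [this]
    exact F₀.inv_mem (SetLike.coe_mem _)
  apply ht
  rw [← e2]
  exact F₀.mul_mem (SetLike.coe_mem _) hcF

end Cfsg.Agent.Lib.Helper65.SpRow
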