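import Cfsg.Agent.Lib.Helper94.SpRow.Base
import Cfsg.Agent.Lib.Helper5.SpSimple

set_option autoImplicit false

namespace Cfsg.Agent.Lib.Helper65.SpRow

open Cfsg Cfsg.Geo Matrix Cfsg.Agent.Lib.Helper94.SpRow
open scoped MatrixGroups

variable {F : Type*} [Field F] {m : ℕ}

theorem tvG_ne_one {v : Fin m ⊕ Fin m → F} (hv : v ≠ 0) : tvG v (1 : F) ≠ 1 := by
  intro h
  obtain ⟨x, hx⟩ := sf_exists_eq_one hv
  have := tvG_mulVec v (1 : F) x
  rw [h, Units.val_one, Matrix.one_mulVec, hx, mul_one, one_smul] at this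
  exact hv (by simpa using this)

theorem scalar_of_commute_tvG (x : GL (Fin m ⊕ Fin m) F)
    (h : ∀ v : Fin m ⊕ Fin m → F, x * tvG v (1 : F) = tvG v (1 : F) * x) :
    ∃ a : F, (x : Matrix (Fin m ⊕ Fin m) (Fin m ⊕ Fin m) F) = a • 1 := by
  obtain ⟨a, ha⟩ := Cfsg.Agent.Lib.Helper5.matrix_eq_scalar_of_forall_mulVec
    (x : Matrix (Fin m ⊕ Fin m) (Fin m ⊕ Fin m) F) (by
      intro v
      by_cases hv : v = 0
      · exact ⟨0, by simp [hv]⟩
      obtain ⟨y, hy⟩ := sf_exists_eq_one hv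
      have h1 := congrArg (fun g : GL (Fin m ⊕ Fin m) F =>
        (g : Matrix (Fin m ⊕ Fin m) (Fin m ⊕ Fin m) F) *ᵥ y) (h v)
      simp only [Units.val_mul, ← Matrix.mulVec_mulVec, tvG_mulVec, hy, mul_one, one_smul,
        Matrix.mulVec_add, one_mul] at h1
      exact ⟨_, add_left_cancel h1⟩)
  exact ⟨a, by rw [ha, Matrix.smul_one_eq_diagonal]; rfl⟩

theorem conj_mem_spGL {x g : GL (Fin m ⊕ Fin m) F} (hx : x ∈ similarityGroup (sympForm m F))
    (hg : g ∈ spGL m F) : x * g * x⁻¹ ∈ spGL m F := by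
  obtain ⟨c, hc⟩ := hx
  rw [mem_spGL] at hg ⊢
  intro u v
  have hxx : ∀ w : Fin m ⊕ Fin m → F, (x : Matrix (Fin m ⊕ Fin m) (Fin m ⊕ Fin m) F) *ᵥ
      (((x⁻¹ : GL (Fin m ⊕ Fin m) F) : Matrix (Fin m ⊕ Fin m) (Fin m ⊕ Fin m) F) *ᵥ w) = w := by
    intro w
    rw [Matrix.mulVec_mulVec, ← Units.val_mul, mul_inv_cancel, Units.val_one, Matrix.one_mulVec]
  rw [Units.val_mul, Units.val_mul, ← Matrix.mulVec_mulVec, ← Matrix.mulVec_mulVec,
    ← Matrix.mulVec_mulVec, ← Matrix.mulVec_mulVec, hc, hg, ← hc, hxx, hxx]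

theorem sp_not_le_normalizer [Fintype F] (hm : 2 ≤ m) (hodd : Odd (Fintype.card F))
    (R : Subgroup (GL (Fin m ⊕ Fin m) F)) (hR : IsPGroup 2 R)
    (hsim : R ≤ similarityGroup (sympForm m F))
    (hirr : ActsAbsolutelyIrreducibly (matrixSet R)) :
    ¬ spGL m F ≤ subgroupNormalizer R := by
  intro hle
  obtain ⟨p, hchar⟩ := CharP.exists F
  have hp : p.Prime :=
    (CharP.char_is_prime_or_zero F p).resolve_right (CharP.char_ne_zero_of_finite F p)
  have hp2 : p ≠ 2 := by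
    rintro rfl
    have : 2 ∣ Fintype.card F := by
      obtain ⟨n, -, hc⟩ := FiniteField.card F 2
      rw [hc]; exact dvd_pow_self 2 n.pos.ne'
    exact (Nat.not_even_iff_odd.mpr hodd) (even_iff_two_dvd.mpr this)
  have hq3 : 3 ≤ Fintype.card F := by
    have h1 : 1 < Fintype.card F := Fintype.one_lt_card
    rcases hodd with ⟨k, hk⟩
    omega
  have htvp : ∀ (v : Fin m ⊕ Fin m → F), tvG v (1 : F) ^ p = 1 := by
    intro v
    rw [tvG_pow, CharP.cast_eq_zero F p, zero_mul, tvG_zero]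
  have hone : ∀ g ∈ R, g ^ p = 1 → g = 1 := by
    intro g hg hgp
    obtain ⟨k, hk⟩ := hR ⟨g, hg⟩
    have hk' : g ^ 2 ^ k = 1 := by simpa using congrArg Subtype.val hk
    have hcop : Nat.Coprime p (2 ^ k) :=
      Nat.Coprime.pow_right _ ((Nat.coprime_primes hp Nat.prime_two).2 hp2)
    exact orderOf_eq_one_iff.1 (Nat.eq_one_of_dvd_coprimes hcop (orderOf_dvd_of_pow_eq_one hgp)
      (orderOf_dvd_of_pow_eq_one hk'))
  have hnorm : ∀ g ∈ spGL m F, ∀ x ∈ R, g * x * g⁻¹ ∈ R := by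
    intro g hg x hx
    exact (Subgroup.mem_normalizer_iff.1 (hle hg) x).1 hx
  -- transport to Mathlib's symplectic group
  let ι : Matrix.symplecticGroup (Fin m) F →* GL (Fin m ⊕ Fin m) F :=
    (spGL m F).subtype.comp (Cfsg.Agent.Lib.Helper5.spToSpGL (F := F) (m := m)).toMonoidHom
  have hιmem : ∀ A, ι A ∈ spGL m F := fun A => (Cfsg.Agent.Lib.Helper5.spToSpGL A).2
  have hιsurj : ∀ g ∈ spGL m F, ∃ A, ι A = g := by
    intro g hg
    refine ⟨(Cfsg.Agent.Lib.Helper5.spToSpGL (F := F) (m := m)).symm ⟨g, hg⟩, ?_⟩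
    simp [ι]
  have hιinj : Function.Injective ι := by
    intro A B hAB
    apply (Cfsg.Agent.Lib.Helper5.spToSpGL (F := F) (m := m)).injective
    exact Subtype.ext hAB
  haveI hN : (R.comap ι).Normal := by
    constructor
    intro A hA B
    rw [Subgroup.mem_comap] at hA ⊢
    rw [map_mul, map_mul, map_inv]
    exact hnorm _ (hιmem B) _ hA
  obtain ⟨v₀, hv₀⟩ : ∃ v₀ : Fin m ⊕ Fin m → F, v₀ ≠ 0 := by
    refine ⟨Pi.single (Sum.inl ⟨0, by omega⟩) 1, ?_⟩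
    intro h
    have := congrFun h (Sum.inl ⟨0, by omega⟩)
    simp at this
  have hcentral : ∀ y ∈ R, y ∈ spGL m F → ∀ g ∈ spGL m F, y * g = g * y := by
    rcases Cfsg.Agent.Lib.Helper5.sp_normal_le_center_or (R.comap ι) with hc | hc
    · intro y hy hyI g hg
      obtain ⟨A, rfl⟩ := hιsurj y hyI
      obtain ⟨B, rfl⟩ := hιsurj g hg
      have hA : A ∈ Subgroup.center _ := hc hy
      rw [← map_mul, ← map_mul, (Subgroup.mem_center_iff.mp hA B)]
    · exfalso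
      rw [Cfsg.Agent.Lib.Helper5.sp_commutator_eq_top (by
        rcases Nat.lt_or_ge 2 m with h | h
        · exact Or.inl h
        · exact Or.inr (Or.inl ⟨by omega, hq3⟩))] at hc
      obtain ⟨A, hA⟩ := hιsurj _ (tvG_mem v₀ (1 : F))
      have : tvG v₀ (1 : F) ∈ R := by
        rw [← hA]; exact hc (Subgroup.mem_top A)
      exact tvG_ne_one hv₀ (hone _ this (htvp v₀))
  have hscal : ∀ x ∈ R, ∃ c : F, (x : Matrix (Fin m ⊕ Fin m) (Fin m ⊕ Fin m) F) = c • 1 := by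
    intro x hx
    apply scalar_of_commute_tvG
    intro v
    set τ := tvG v (1 : F) with hτ
    have hτI : τ ∈ spGL m F := tvG_mem _ _
    have hwR : x * τ * x⁻¹ * τ⁻¹ ∈ R := by
      have := R.mul_mem hx (hnorm τ hτI x⁻¹ (R.inv_mem hx))
      simpa [mul_assoc] using this
    have hwI : x * τ * x⁻¹ * τ⁻¹ ∈ spGL m F :=
      (spGL m F).mul_mem (conj_mem_spGL (hsim hx) hτI) ((spGL m F).inv_mem hτI)
    have hcomm := hcentral _ hwR hwI τ hτI
    have hw1 : x * τ * x⁻¹ * τ⁻¹ = 1 := by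
      apply hone _ hwR
      have e1 : (x * τ * x⁻¹ * τ⁻¹ * τ) ^ p = (x * τ * x⁻¹ * τ⁻¹) ^ p * τ ^ p :=
        (show Commute _ _ from hcomm).mul_pow p
      have e2 : x * τ * x⁻¹ * τ⁻¹ * τ = x * τ * x⁻¹ := by group
      rw [e2, conj_pow, htvp v, mul_one, mul_one, mul_inv_cancel] at e1
      exact e1.symm
    have : x * τ = (x * τ * x⁻¹ * τ⁻¹) * (τ * x) := by group
    rw [this, hw1, one_mul]
  obtain ⟨c, hc⟩ := hirr.2 (Matrix.single (Sum.inl ⟨0, by omega⟩) (Sum.inl ⟨1, by omega⟩) 1) (by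
    rintro _ ⟨x, hx, rfl⟩
    obtain ⟨c, hc⟩ := hscal x hx
    show Matrix.single _ _ 1 * (x : Matrix (Fin m ⊕ Fin m) (Fin m ⊕ Fin m) F) =
      (x : Matrix (Fin m ⊕ Fin m) (Fin m ⊕ Fin m) F) * Matrix.single _ _ 1
    rw [hc]; simp)
  have := congrFun (congrFun hc (Sum.inl ⟨0, by omega⟩)) (Sum.inl ⟨1, by omega⟩)
  simp at this

end Cfsg.Agent.Lib.Helper65.SpRow
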