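import Cfsg.Agent.Lib.Helper65.SpRow.QK4a
import Cfsg.Agent.Lib.Helper64.SpRow.QK2

set_option autoImplicit false

namespace Cfsg.Agent.Lib.Helper65.SpRow

open Cfsg Cfsg.Geo Matrix Cfsg.Agent.Lib.Helper94.SpRow
open scoped MatrixGroups

variable {F : Type*} [Field F]

/-- K4 -/
theorem full_root (h2 : (2 : F) = 0) (h3 : ∀ s t : F, ∃ r : F, r ≠ s ∧ r ≠ t)
    {K : Subalgebra F (Matrix (Fin 2 ⊕ Fin 2) (Fin 2 ⊕ Fin 2) F)} (D : KD K)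
    (G : Subgroup (GL (Fin 2 ⊕ Fin 2) F)) (hHG : subalgebraNormalizer K ⊓ spGL 2 F ≤ G)
    (g : GL (Fin 2 ⊕ Fin 2) F) (hgG : g ∈ G) (hgS : g ∈ spGL 2 F) (v : Fin 2 ⊕ Fin 2 → F)
    (hβ : sympForm 2 F ((g : Matrix _ _ F) *ᵥ (D.θ *ᵥ v)) (D.θ *ᵥ ((g : Matrix _ _ F) *ᵥ v)) ≠ 0) :
    ∀ c : F, tvG ((g : Matrix _ _ F) *ᵥ v) c ∈ G :=
  full_root_of h2 h3 D (fun v y z => Cfsg.Agent.Lib.Helper64.SpRow.ktv_mem h2 D v y z) G hHG g hgG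
    hgS v hβ

end Cfsg.Agent.Lib.Helper65.SpRow
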