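import Cfsg.Agent.Lib.Helper94.SpRow.Defs4

set_option autoImplicit false

/-! # QK4 (helper94 farm S5789): the key identity `X1 X2 = t_u(c) X3` and the full root group -/

namespace Cfsg.Agent.Lib.Helper65.SpRow

open Cfsg Cfsg.Geo Matrix Cfsg.Agent.Lib.Helper94.SpRow
open scoped MatrixGroups

variable {F : Type*} [Field F]

/-- the key identity -/
theorem QK4_identity (u p t : Fin 2 ⊕ Fin 2 → F) (a r z β : F) (hup : sympForm 2 F u p = 0)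
    (hut : sympForm 2 F u t = 0) (hpt : sympForm 2 F p t = β) :
    U3 u t (a * (r * z * β)) (r * z * β) 0 * U3 u p (a * r) r 0
      = tvG u (r * z * β * (a + r * β)) * U3 u (p + (z * β) • t) (a * r) r 0 := by
  have hpu : sympForm 2 F p u = 0 := by rw [sf_swap, hup, neg_zero]
  have htu : sympForm 2 F t u = 0 := by rw [sf_swap, hut, neg_zero]
  have hup' : sympForm 2 F u (p + (z * β) • t) = 0 := by
    rw [sf_add_right, sf_smul_right, hup, hut]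
    ring
  apply gl_ext
  intro w
  rw [Units.val_mul, Units.val_mul, ← Matrix.mulVec_mulVec, ← Matrix.mulVec_mulVec,
    U3_mulVec hup, U3_mulVec hut, U3_mulVec hup', tvG_mulVec]
  simp only [sf_add_left, sf_add_right, sf_smul_left, sf_smul_right, sf_self, hup, hut, hpu, htu,
    hpt, mul_zero, add_zero, zero_add, zero_mul]
  module

theorem full_root_of (h2 : (2 : F) = 0) (h3 : ∀ s t : F, ∃ r : F, r ≠ s ∧ r ≠ t)
    {K : Subalgebra F (Matrix (Fin 2 ⊕ Fin 2) (Fin 2 ⊕ Fin 2) F)} (D : KD K)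
    (hK2 : ∀ (v : Fin 2 ⊕ Fin 2 → F) (y z : F),
      U3 v (D.θ *ᵥ v) (D.a * y + D.b * z) y z ∈ subalgebraNormalizer K)
    (G : Subgroup (GL (Fin 2 ⊕ Fin 2) F)) (hHG : subalgebraNormalizer K ⊓ spGL 2 F ≤ G)
    (g : GL (Fin 2 ⊕ Fin 2) F) (hgG : g ∈ G) (hgS : g ∈ spGL 2 F) (v : Fin 2 ⊕ Fin 2 → F)
    (hβ : sympForm 2 F ((g : Matrix _ _ F) *ᵥ (D.θ *ᵥ v)) (D.θ *ᵥ ((g : Matrix _ _ F) *ᵥ v)) ≠ 0) :
    ∀ c : F, tvG ((g : Matrix _ _ F) *ᵥ v) c ∈ G := by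
  have hmem : ∀ (v' : Fin 2 ⊕ Fin 2 → F) (y z : F),
      U3 v' (D.θ *ᵥ v') (D.a * y + D.b * z) y z ∈ G :=
    fun v' y z => hHG ⟨hK2 v' y z, U3_mem _ _ _ _ _⟩
  have hup0 : sympForm 2 F ((g : Matrix _ _ F) *ᵥ v) ((g : Matrix _ _ F) *ᵥ (D.θ *ᵥ v)) = 0 := by
    rw [mem_spGL.1 hgS, sf_swap, D.alt, neg_zero]
  have hX2' : ∀ r : F, U3 ((g : Matrix _ _ F) *ᵥ v) ((g : Matrix _ _ F) *ᵥ (D.θ *ᵥ v))
      (D.a * r) r 0 ∈ G := by
    intro r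
    have h0 := hmem v r 0
    rw [mul_zero, add_zero] at h0
    rw [← U3_conj hgS v (D.θ *ᵥ v) (D.a * r) r 0]
    exact mul_mem (mul_mem hgG h0) (inv_mem hgG)
  obtain ⟨u, hu⟩ : ∃ u, u = (g : Matrix (Fin 2 ⊕ Fin 2) (Fin 2 ⊕ Fin 2) F) *ᵥ v := ⟨_, rfl⟩
  obtain ⟨p, hp⟩ : ∃ p, p = (g : Matrix (Fin 2 ⊕ Fin 2) (Fin 2 ⊕ Fin 2) F) *ᵥ (D.θ *ᵥ v) :=
    ⟨_, rfl⟩
  rw [← hu, ← hp] at hβ hup0 hX2'
  rw [← hu]
  obtain ⟨β, hβdef⟩ : ∃ β, β = sympForm 2 F p (D.θ *ᵥ u) := ⟨_, rfl⟩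
  rw [← hβdef] at hβ
  have hut : sympForm 2 F u (D.θ *ᵥ u) = 0 := by rw [sf_swap, D.alt, neg_zero]
  have hpu : sympForm 2 F p u = 0 := by rw [sf_swap, hup0, neg_zero]
  have key : ∀ r z : F, tvG u (r * z * β * (D.a + r * β)) ∈ G := by
    intro r z
    have hX1 : U3 u (D.θ *ᵥ u) (D.a * (r * z * β)) (r * z * β) 0 ∈ G := by
      have h0 := hmem u (r * z * β) 0
      rwa [mul_zero, add_zero] at h0
    have hh : U3 u (D.θ *ᵥ u) (D.b * z) 0 z ∈ G := by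
      have h0 := hmem u 0 z
      rwa [mul_zero, zero_add] at h0
    have hX3 : U3 u (p + (z * β) • (D.θ *ᵥ u)) (D.a * r) r 0 ∈ G := by
      have hc := U3_conj (U3_mem u (D.θ *ᵥ u) (D.b * z) 0 z) u p (D.a * r) r 0
      have e1 : ((U3 u (D.θ *ᵥ u) (D.b * z) 0 z : GL (Fin 2 ⊕ Fin 2) F) :
          Matrix (Fin 2 ⊕ Fin 2) (Fin 2 ⊕ Fin 2) F) *ᵥ u = u := by
        rw [U3_mulVec hut, sf_self, hut]
        simp
      have e2 : ((U3 u (D.θ *ᵥ u) (D.b * z) 0 z : GL (Fin 2 ⊕ Fin 2) F) :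
          Matrix (Fin 2 ⊕ Fin 2) (Fin 2 ⊕ Fin 2) F) *ᵥ p = p + (z * β) • (D.θ *ᵥ u) := by
        rw [U3_mulVec hut, hpu, ← hβdef]
        simp
      rw [e1, e2] at hc
      rw [← hc]
      exact mul_mem (mul_mem hh (hX2' r)) (inv_mem hh)
    have hid := QK4_identity u p (D.θ *ᵥ u) D.a r z β hup0 hut hβdef.symm
    have e3 : tvG u (r * z * β * (D.a + r * β))
        = U3 u (D.θ *ᵥ u) (D.a * (r * z * β)) (r * z * β) 0 * U3 u p (D.a * r) r 0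
          * (U3 u (p + (z * β) • (D.θ *ᵥ u)) (D.a * r) r 0)⁻¹ := by
      rw [hid]
      group
    rw [e3]
    exact mul_mem (mul_mem hX1 (hX2' r)) (inv_mem hX3)
  intro c₀
  obtain ⟨r, hr0, hra⟩ := h3 0 (D.a / β)
  have hne2 : D.a + r * β ≠ 0 := by
    intro h0
    apply hra
    rw [eq_div_iff hβ]
    have h4 : (2 : F) * D.a = 0 := by rw [h2, zero_mul]
    linear_combination h0 - h4
  have h5 := key r (c₀ / (r * β * (D.a + r * β)))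
  have e : r * (c₀ / (r * β * (D.a + r * β))) * β * (D.a + r * β) = c₀ := by
    field_simp
  rwa [e] at h5

end Cfsg.Agent.Lib.Helper65.SpRow
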